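import Cfsg.Agent.H342.NFIdx
import Cfsg.Agent.H342.NFLin
import Cfsg.Agent.H342.NFCoprime
import Cfsg.Agent.H198.NFCrit
import Cfsg.Agent.H222.NFLinD
import Cfsg.Agent.H743.NFLinB
import Cfsg.Agent.H176.NFAbs
import Cfsg.Agent.Lib.FrattiniPGroup
import Cfsg.Agent.Lib.CoprimeAbelian
import Cfsg.Agent.Lib.NormalAbelian
import Cfsg.Agent.S0095
import Cfsg.Agent.S2153

/-!
# S5773: `PSU_6(2)` (helper342)
-/

set_option autoImplicit false

namespace Cfsg.Agent.H342.NF

open Module Cfsg.Agent.H518.Dghp Cfsg.Agent.H518.DghpSep Cfsg.Agent.H518.DghpPrim Cfsg.Agent.H518.DghpMat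
  Cfsg.Agent.H518.DghpFix Cfsg.Agent.H176.NF Cfsg.Agent.H198.NFC

variable {F : Type} [Field F] [Fintype F]

theorem charTwo_of_four (hF : Fintype.card F = 4) : CharP F 2 := by
  have : Fact (Nat.Prime 2) := ⟨Nat.prime_two⟩
  exact charP_of_card_eq_prime_pow (f := 2) (by rw [hF]; norm_num)

theorem herm_swap (hF : Fintype.card F = 4) {n : ℕ} (u v : Fin n → F) :
    Cfsg.hermForm n F 2 v u = (Cfsg.hermForm n F 2 u v) ^ 2 := by
  have := charTwo_of_four hF
  simp only [Cfsg.hermForm]
  rw [sum_pow_char]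
  refine Finset.sum_congr rfl fun i _ => ?_
  have h2 := FiniteField.pow_card (v i)
  rw [hF] at h2
  rw [mul_pow, ← pow_mul]
  norm_num
  rw [h2]
  ring

theorem herm_add_left {n : ℕ} (u v w : Fin n → F) :
    Cfsg.hermForm n F 2 (u + v) w = Cfsg.hermForm n F 2 u w + Cfsg.hermForm n F 2 v w := by
  simp only [Cfsg.hermForm, Pi.add_apply, add_mul, Finset.sum_add_distrib]

theorem herm_add_right (hF : Fintype.card F = 4) {n : ℕ} (u v w : Fin n → F) :
    Cfsg.hermForm n F 2 u (v + w) = Cfsg.hermForm n F 2 u v + Cfsg.hermForm n F 2 u w := by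
  have := charTwo_of_four hF
  simp only [Cfsg.hermForm, Pi.add_apply, add_pow_char, mul_add, Finset.sum_add_distrib]

/-- The hermitian form over the field with four elements as `Pol`. -/
noncomputable def polSU (hF : Fintype.card F = 4) (n : ℕ) : Pol F (Fin n → F) :=
  haveI : CharP F 2 := charTwo_of_four hF
  { β := fun u v => Cfsg.hermForm n F 2 u v
    κ := fun u => Cfsg.hermForm n F 2 u u
    σ := frobenius F 2
    N := fun c => c ^ 3
    add_left := fun u v w => herm_add_left u v w
    smul_left := fun c u v => by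
      simp only [Cfsg.hermForm, Pi.smul_apply, smul_eq_mul, Finset.mul_sum, mul_assoc]
    add_right := fun u v w => herm_add_right hF u v w
    smul_right := fun c u v => by
      simp only [Cfsg.hermForm, Pi.smul_apply, smul_eq_mul, Finset.mul_sum, mul_pow, frobenius_def]
      exact Finset.sum_congr rfl fun i _ => by ring
    refl := fun u v h => by
      have h' : Cfsg.hermForm n F 2 u v = 0 := h
      rw [herm_swap hF, h']
      norm_num
    nondeg := fun u h => by
      funext i
      have := h (Pi.single i 1)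
      simp only [Cfsg.hermForm] at this
      rw [Finset.sum_eq_single i (fun j _ hj => by rw [Pi.single_eq_of_ne hj]; ring) (fun hi => absurd (Finset.mem_univ _) hi)]
        at this
      simpa using this
    κ_add := fun u v h => by
      have h' : Cfsg.hermForm n F 2 u v = 0 := h
      have h2 : Cfsg.hermForm n F 2 v u = 0 := by rw [herm_swap hF, h']; norm_num
      rw [herm_add_left, herm_add_right hF, herm_add_right hF, h', h2]
      ring
    κ_smul := fun c u => by
      simp only [Cfsg.hermForm, Pi.smul_apply, smul_eq_mul, Finset.mul_sum]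
      exact Finset.sum_congr rfl fun i _ => by ring
    N_zero := fun c h => by simpa using h
    κ_zero := fun u h => h
    κ_iso := fun u v hu _ _ => ⟨1, 0, Or.inl one_ne_zero, by rw [one_smul, zero_smul, add_zero]; exact hu⟩ }


theorem herm_inv {n : ℕ} (g : Cfsg.SU n F 2) (u v : Fin n → F) :
    Cfsg.hermForm n F 2 ((suHom n F 2 g).mulVec u) ((suHom n F 2 g).mulVec v) = Cfsg.hermForm n F 2 u v :=
  g.2 u v

theorem bd_two (hF : Fintype.card F = 4) : Bd (Cfsg.SU 6 F 2) 11 2 1 := by
  have h := bd_aniso (Cfsg.Agent.H743.NFLinB.bdOfUnip bdAbs) Cfsg.Agent.H222.NFLin.anisoForm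
    (suHom_injective 6 F 2) (polSU hF 6) (fun g u v => herm_inv g u v) (fun g u => herm_inv g u u)
    (r := 11) (p := 2) (e := 5) (f := 2) (by norm_num) (by norm_num) (by norm_num) (by rw [hF]; norm_num)
    (by rw [hF]; exact orderOf_four_11) (by norm_num) (by norm_num)
  have h5 : (5 : ℕ).factorization 2 = 0 := Nat.factorization_eq_zero_of_not_dvd (by norm_num)
  rw [h5, if_pos rfl, add_zero] at h
  exact h

/-- abbreviation: the linear map of an element -/
noncomputable abbrev su (F : Type) [Field F] [Fintype F] (x : Cfsg.SU 6 F 2) : (Fin 6 → F) →ₗ[F] (Fin 6 → F) :=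
  matRep (suHom 6 F 2) x

theorem su_mul (x y : Cfsg.SU 6 F 2) : su F (x * y) = su F x * su F y := map_mul _ x y

theorem su_comm {x y : Cfsg.SU 6 F 2} (h : x * y = y * x) : su F x * su F y = su F y * su F x := by
  rw [← su_mul, ← su_mul, h]

theorem su_inj {x : Cfsg.SU 6 F 2} (h : su F x = 1) : x = 1 :=
  matRep_injective (suHom_injective 6 F 2) (by rw [map_one]; exact h)

theorem det_su (x : Cfsg.SU 6 F 2) : LinearMap.det (su F x) = 1 := by
  have h : (suHom 6 F 2 x).det = 1 := x.1.2
  rw [su, matRep_apply]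
  rw [← h]
  exact LinearMap.det_toLin' _

theorem exists_omega (hF : Fintype.card F = 4) : ∃ w : F, w ^ 2 + w + 1 = 0 ∧ w ≠ 1 ∧ w ^ 2 ≠ 1 ∧ w ^ 3 = 1 := by
  classical
  obtain ⟨w, hw⟩ : ∃ w : F, w ∉ ({0, 1} : Finset F) := by
    by_contra hcon
    push Not at hcon
    have h1 : (Finset.univ : Finset F) ⊆ {0, 1} := fun x _ => hcon x
    have h2 := Finset.card_le_card h1
    rw [Finset.card_univ, hF] at h2
    have h3 := Finset.card_le_two (a := (0 : F)) (b := 1)
    omega
  simp only [Finset.mem_insert, Finset.mem_singleton, not_or] at hw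
  have h3 := FiniteField.pow_card_sub_one_eq_one w hw.1
  rw [hF] at h3
  norm_num at h3
  have h1 : w ^ 2 + w + 1 = 0 := by
    have : (w - 1) * (w ^ 2 + w + 1) = 0 := by linear_combination h3
    exact (mul_eq_zero.1 this).resolve_left (sub_ne_zero.2 hw.2)
  refine ⟨w, h1, hw.2, ?_, h3⟩
  intro h
  apply hw.2
  calc w = w * w ^ 2 := by rw [h, mul_one]
    _ = w ^ 3 := by ring
    _ = 1 := h3

theorem cast_ne {r : ℕ} (hF : Fintype.card F = 4) (hr : r.Prime) (h2 : r ≠ 2) : (r : F) ≠ 0 := by
  refine cast_ne_zero_of_not_dvd hr ?_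
  rw [hF]
  intro h
  exact h2 ((Nat.prime_dvd_prime_iff_eq hr Nat.prime_two).1 (hr.dvd_of_dvd_pow (show r ∣ 2 ^ 2 from h)))

theorem no_three (hF : Fintype.card F = 4) {x u : Cfsg.SU 6 F 2} (hx : orderOf x = 11) (hu : orderOf u = 3)
    (hxu : x * u = u * x) {w : Fin 6 → F} (hw : w ≠ 0) (hwx : w ∈ fixS (su F x)) (hwu : w ∈ fixS (su F u)) :
    False := by
  have h11 : Nat.Prime 11 := by norm_num
  have h11F : ¬ 11 ∣ Fintype.card F := by rw [hF]; norm_num
  have hr := cast_ne hF h11 (by norm_num)
  have hfin := finrank_fixS (e := 5) (suHom_injective 6 F 2) h11 h11F (by rw [hF]; exact orderOf_four_11) (by norm_num) hx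
  rw [Fintype.card_fin] at hfin
  change finrank F (fixS (su F x)) + 5 = 6 at hfin
  have hf : su F x ^ 11 = 1 := pow_eq_one_of_orderOf (matRep (suHom 6 F 2)) hx
  have hg : su F u ^ 3 = 1 := pow_eq_one_of_orderOf (matRep (suHom 6 F 2)) hu
  have hcomm := su_comm hxu
  set f := su F x with hfdef
  set g := su F u with hgdef
  have hD := finrank_dsp hr hf
  have hV : finrank F (Fin 6 → F) = 6 := by simp
  have hle : fixS f ≤ fixS g := by
    have h1 : fixS f ⊓ fixS g ≤ fixS f := inf_le_left
    have h2 : fixS f ⊓ fixS g ≠ ⊥ := by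
      intro h
      apply hw
      have : w ∈ fixS f ⊓ fixS g := ⟨hwx, hwu⟩
      rwa [h, Submodule.mem_bot] at this
    have h3 : 0 < finrank F ↥(fixS f ⊓ fixS g) := by
      rw [Module.finrank_pos_iff]
      exact Submodule.nontrivial_iff_ne_bot.2 h2
    have h4 := Submodule.eq_of_le_of_finrank_le h1 (by omega)
    exact inf_eq_left.1 h4
  have dich : ∀ W : Submodule F (Fin 6 → F), W ≤ dsp f → (∀ v ∈ W, f v ∈ W) → W = ⊥ ∨ W = dsp f := by
    intro W hWD hW
    have h1 := finrank_fix (k := 1) h11 h11F (by rw [pow_one]; exact hf) W hW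
    have h2 : W ⊓ fixS f = ⊥ := by
      rw [eq_bot_iff, ← fixS_inf_dsp hr hf]
      exact fun v hv => ⟨hv.2, hWD hv.1⟩
    rw [h2, finrank_bot, Nat.sub_zero, hF, orderOf_four_11] at h1
    have h3 := Submodule.finrank_mono hWD
    obtain ⟨k, hk⟩ := h1
    have h4 : k = 0 ∨ k = 1 := by omega
    rcases h4 with rfl | rfl
    · left
      exact Submodule.finrank_eq_zero.1 (by omega)
    · right
      exact Submodule.eq_of_le_of_finrank_le hWD (by omega)
  have hgD : ∀ v ∈ dsp f, g v ∈ dsp f := dsp_invariant hcomm.symm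
  have hfD : ∀ v ∈ dsp f, f v ∈ dsp f := dsp_invariant rfl
  -- `g` has no fixed vectors in `dsp f`
  have hW1 : fixS g ⊓ dsp f = ⊥ := by
    rcases dich (fixS g ⊓ dsp f) inf_le_right (inf_invariant (fixS_invariant hcomm.symm) hfD) with h | h
    · exact h
    · exfalso
      have h1 : dsp f ≤ fixS g := by rw [← h]; exact inf_le_left
      have h2 : fixS g = ⊤ := by
        rw [eq_top_iff, ← fixS_sup_dsp hr hf]
        exact sup_le hle h1
      have h3 : u = 1 := su_inj (fixS_eq_top_iff.1 h2)
      rw [h3, orderOf_one] at hu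
      norm_num at hu
  have hquad : ∀ v ∈ dsp f, g (g v) + g v + v = 0 := by
    intro v hv
    have h1 : g (g v) + g v + v ∈ fixS g ⊓ dsp f := by
      refine ⟨?_, ?_⟩
      · have h2 : g (g (g v)) = v := by
          have := congrArg (fun T : (Fin 6 → F) →ₗ[F] (Fin 6 → F) => T v) hg
          simpa [pow_succ] using this
        rw [SetLike.mem_coe, mem_fixS, map_add, map_add, h2]
        abel
      · exact Submodule.add_mem _ (Submodule.add_mem _ (hgD _ (hgD _ hv)) (hgD _ hv)) hv
    rwa [hW1, Submodule.mem_bot] at h1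
  obtain ⟨o, ho, ho1, ho2, ho3⟩ := exists_omega hF
  have hchar := charTwo_of_four hF
  obtain ⟨z, hz3, hz1, hz⟩ : ∃ z : F, z ^ 3 = 1 ∧ z ≠ 1 ∧ ∀ v ∈ dsp f, g v = z • v := by
    let W2 : Submodule F (Fin 6 → F) := LinearMap.ker (g - o • (1 : (Fin 6 → F) →ₗ[F] (Fin 6 → F))) ⊓ dsp f
    have hmem : ∀ v, v ∈ W2 ↔ g v = o • v ∧ v ∈ dsp f := by
      intro v
      simp [W2, Submodule.mem_inf, LinearMap.mem_ker, sub_eq_zero]
    rcases dich W2 inf_le_right (fun v hv => by
      rw [hmem] at hv ⊢
      refine ⟨?_, hfD _ hv.2⟩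
      have h1 : g (f v) = f (g v) := by
        have := congrArg (fun T : (Fin 6 → F) →ₗ[F] (Fin 6 → F) => T v) hcomm
        exact this.symm
      rw [h1, hv.1, map_smul]) with h | h
    · refine ⟨o ^ 2, by rw [← pow_mul, mul_comm, pow_mul, ho3, one_pow], ho2, fun v hv => ?_⟩
      have h1 : g v - o ^ 2 • v ∈ W2 := by
        rw [hmem]
        refine ⟨?_, Submodule.sub_mem _ (hgD _ hv) (Submodule.smul_mem _ _ hv)⟩
        rw [map_sub, map_smul]
        have h2 := hquad v hv
        have h3 : g (g v) = - g v - v := by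
          rw [← sub_eq_zero, ← h2]; abel
        rw [h3, smul_sub, smul_smul]
        have h4 : o * o ^ 2 = 1 := by rw [← ho3]; ring
        rw [h4, one_smul]
        have h5 : o = -1 - o ^ 2 := by linear_combination ho
        conv_rhs => rw [h5, sub_smul, neg_smul, one_smul]
        abel
      rw [h, Submodule.mem_bot] at h1
      exact sub_eq_zero.1 h1
    · refine ⟨o, ho3, ho1, fun v hv => ?_⟩
      rw [← h, hmem] at hv
      exact hv.1
  have hdet := LinearMap.det_eq_det_mul_det (W := dsp f) g (fun v hv => hgD v hv)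
  rw [det_su] at hdet
  have h1 : g.restrict (p := dsp f) (q := dsp f) (fun v hv => hgD v hv) = z • (1 : dsp f →ₗ[F] dsp f) := by
    ext v : 1
    apply Subtype.ext
    exact hz v v.2
  have h2 : (dsp f).mapQ (dsp f) g (fun v hv => hgD v hv) = 1 := by
    apply LinearMap.ext
    intro q
    obtain ⟨v, rfl⟩ := Submodule.Quotient.mk_surjective _ q
    have hv : v ∈ fixS f ⊔ dsp f := by rw [fixS_sup_dsp hr hf]; trivial
    obtain ⟨a, ha, b, hb, rfl⟩ := Submodule.mem_sup.1 hv
    rw [Submodule.mapQ_apply, Module.End.one_apply, Submodule.Quotient.eq, map_add]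
    have ha' : g a = a := hle ha
    rw [ha']
    have : a + g b - (a + b) = g b - b := by abel
    rw [this]
    exact Submodule.sub_mem _ (hgD _ hb) hb
  erw [h1, h2] at hdet
  rw [LinearMap.det_smul, map_one, map_one, mul_one, mul_one] at hdet
  have h5 : finrank F (dsp f) = 5 := by omega
  rw [h5] at hdet
  apply hz1
  calc z = z ^ 6 * z := by rw [show (6 : ℕ) = 3 * 2 from rfl, pow_mul, hz3, one_pow, one_mul]
    _ = z ^ 5 * z ^ 2 := by ring
    _ = z ^ 2 := by rw [← hdet, one_mul]
    _ = z ^ 2 * z ^ 5 := by rw [← hdet, mul_one]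
    _ = (z ^ 3) ^ 2 * z := by ring
    _ = z := by rw [hz3, one_pow, one_mul]
    _ = 1 := by
      have h6 : z ^ 6 = 1 := by rw [show (6 : ℕ) = 3 * 2 from rfl, pow_mul, hz3, one_pow]
      calc z = z * z ^ 5 := by rw [← hdet, mul_one]
        _ = z ^ 6 := by ring
        _ = 1 := h6

/-- The number of nonzero vectors of a subspace. -/
theorem card_nonzero {V : Type} [AddCommGroup V] [Module F V] [Finite V] (W : Submodule F V) :
    Nat.card {v : V | v ∈ W ∧ v ≠ 0} + 1 = Fintype.card F ^ finrank F W := by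
  classical
  have : Fintype V := Fintype.ofFinite V
  have h1 : Nat.card W = Fintype.card F ^ finrank F W := by
    rw [Module.natCard_eq_pow_finrank (K := F) (V := W), Nat.card_eq_fintype_card]
  rw [← h1]
  have h2 : (W : Set V).ncard = Nat.card W := rfl
  have h3 : ({v : V | v ∈ W ∧ v ≠ 0} : Set V) = (W : Set V) \ {0} := by
    ext v
    simp
  rw [← h2, h3]
  change ((W : Set V) \ {0}).ncard + 1 = _
  exact Set.ncard_sdiff_singleton_add_one W.zero_mem (Set.toFinite _)

theorem exists_three {G : Type*} [Group G] [Finite G] {p : ℕ} [hp : Fact p.Prime] {Q : Subgroup G} (hQ : IsPGroup p Q)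
    (h : 1 < Nat.card Q) : ∃ u ∈ Q, orderOf u = p := by
  obtain ⟨n, hn⟩ := IsPGroup.iff_card.1 hQ
  have h1 : p ∣ Nat.card Q := by
    rw [hn]
    refine dvd_pow_self p ?_
    rintro rfl
    rw [hn, pow_zero] at h
    exact lt_irrefl _ h
  obtain ⟨u, hu⟩ := exists_prime_orderOf_dvd_card' p h1
  exact ⟨u, u.2, by rw [Subgroup.orderOf_coe, hu]⟩

/-- `3`-subgroups centralized by an element of order `11`. -/
theorem card_le_of_cent (hF : Fintype.card F = 4) {x : Cfsg.SU 6 F 2} (hx : orderOf x = 11)
    (U : Subgroup (Cfsg.SU 6 F 2)) (hU : IsPGroup 3 U) (hUx : ∀ u ∈ U, x * u = u * x) : Nat.card U ≤ 3 := by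
  have : Fact (Nat.Prime 3) := ⟨Nat.prime_three⟩
  have h11 : Nat.Prime 11 := by norm_num
  have h11F : ¬ 11 ∣ Fintype.card F := by rw [hF]; norm_num
  have hfin := finrank_fixS (e := 5) (suHom_injective 6 F 2) h11 h11F (by rw [hF]; exact orderOf_four_11)
    (by norm_num) hx
  rw [Fintype.card_fin] at hfin
  change finrank F (fixS (su F x)) + 5 = 6 at hfin
  have hW := card_nonzero (fixS (su F x))
  have h1 : finrank F (fixS (su F x)) = 1 := by omega
  rw [h1, hF] at hW
  obtain ⟨w, hw, Q, hQU, hQw, -, hle⟩ := exists_stab (p := 3) (k := 1)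
    (fun (g : Cfsg.SU 6 F 2) (v : Fin 6 → F) => su F g v) (fun v => by simp [su]) (fun g h v => by
      rw [su_mul]; rfl) U hU {v | v ∈ fixS (su F x) ∧ v ≠ 0} inferInstance (fun g hg v hv => by
      refine ⟨fixS_invariant (su_comm (hUx g hg)) v hv.1, fun h0 => hv.2 ?_⟩
      have h2 : su F g⁻¹ (su F g v) = v := by
        change (su F g⁻¹ * su F g) v = v
        rw [← su_mul, inv_mul_cancel]
        simp [su]
      rw [← h2]
      change su F g⁻¹ (su F g v) = 0
      change su F g v = 0 at h0
      rw [h0, map_zero]) (by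
      intro hd
      have h3 := Nat.le_of_dvd (by omega) hd
      omega)
  have hQ1 : Nat.card Q = 1 := by
    by_contra hne
    have hpos : 0 < Nat.card Q := Nat.card_pos
    obtain ⟨u, huQ, hu⟩ := exists_three (hU.to_le hQU) (by omega)
    exact no_three hF hx hu (hUx u (hQU huQ)) hw.2 hw.1 (hQw u huQ)
  rw [hQ1] at hle
  omega

theorem card_psu (hF : Fintype.card F = 4) : Nat.card (Cfsg.PSU 6 F 2) = 9196830720 := by
  have h := Cfsg.Agent.S0280.result (F := F) (q := 2) (by rw [hF]; norm_num) 6 (by norm_num)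
  simp only [Finset.prod_range_succ, Finset.prod_range_zero] at h
  norm_num at h
  omega

theorem card_center (hF : Fintype.card F = 4) : Nat.card (Subgroup.center (Cfsg.SU 6 F 2)) = 3 :=
  Cfsg.Agent.S0279.result (F := F) (q := 2) (by rw [hF]; norm_num) 6 (by norm_num)

theorem card_su (hF : Fintype.card F = 4) : Nat.card (Cfsg.SU 6 F 2) = 27590492160 := by
  have h := Subgroup.card_eq_card_quotient_mul_card_subgroup (Subgroup.center (Cfsg.SU 6 F 2))
  rw [card_center hF, show Nat.card (Cfsg.SU 6 F 2 ⧸ Subgroup.center (Cfsg.SU 6 F 2)) = 9196830720 from card_psu hF] at h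
  rw [h]

/-- a characteristic subgroup of a subgroup normalized by `x` is normalized by `x` -/
theorem norm_of_char {G : Type*} [Group G] {U : Subgroup G} {x : G} (hxU : x ∈ Subgroup.normalizer (U : Set G))
    (K : Subgroup U) (hK : K.Characteristic) : x ∈ Subgroup.normalizer ((K.map U.subtype : Subgroup G) : Set G) := by
  have h1 := Subgroup.mem_normalizer_iff.1 hxU
  let φ : U ≃* U :=
    { toFun := fun u => ⟨x * u * x⁻¹, (h1 u).1 u.2⟩
      invFun := fun u => ⟨x⁻¹ * u * x, by
        rw [h1]
        have : x * (x⁻¹ * u * x) * x⁻¹ = u := by group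
        rw [this]
        exact u.2⟩
      left_inv := fun u => Subtype.ext (by
        change x⁻¹ * (x * u * x⁻¹) * x = u
        group)
      right_inv := fun u => Subtype.ext (by
        change x * (x⁻¹ * u * x) * x⁻¹ = u
        group)
      map_mul' := fun u v => Subtype.ext (by
        change x * (u * v) * x⁻¹ = (x * u * x⁻¹) * (x * v * x⁻¹)
        group) }
  have h2 := Subgroup.characteristic_iff_comap_eq.1 hK φ
  rw [Subgroup.mem_normalizer_iff]
  intro y
  constructor
  · rintro ⟨k, hk, rfl⟩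
    have h3 : φ k ∈ K := by
      rw [← h2] at hk
      exact hk
    exact ⟨φ k, h3, rfl⟩
  · rintro ⟨k, hk, hky⟩
    refine ⟨φ.symm k, ?_, ?_⟩
    · have h3 : φ.symm k ∈ K.comap φ.toMonoidHom := by
        change φ (φ.symm k) ∈ K
        rw [φ.apply_symm_apply]
        exact hk
      rwa [h2] at h3
    · change x⁻¹ * (k : G) * x = y
      have : (k : G) = x * y * x⁻¹ := hky
      rw [this]
      group

theorem four_mod_three : ((4 : ℕ) : ZMod 3) = 1 := by decide

open scoped commutatorElement in
/-- `3`-subgroups normalized by an element of order `11` and containing the center. -/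
theorem card_le_core (hF : Fintype.card F = 4) {x : Cfsg.SU 6 F 2} (hx : orderOf x = 11)
    (U : Subgroup (Cfsg.SU 6 F 2)) (hU : IsPGroup 3 U) (hxU : x ∈ Subgroup.normalizer (U : Set (Cfsg.SU 6 F 2)))
    (hZU : Subgroup.center (Cfsg.SU 6 F 2) ≤ U) : Nat.card U ≤ 3 := by
  have h3 : Fact (Nat.Prime 3) := ⟨Nat.prime_three⟩
  have h11 : Nat.Prime 11 := by norm_num
  set Z := Subgroup.center (Cfsg.SU 6 F 2) with hZ
  have hfin : Finite (Cfsg.SU 6 F 2) := inferInstance
  have hZx : ∀ z ∈ Z, x * z = z * x := fun z hz => Subgroup.mem_center_iff.1 hz x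
  have hR : IsPGroup 11 (Subgroup.zpowers x) := IsPGroup.of_card (n := 1) (by rw [Nat.card_zpowers, hx, pow_one])
  have hcent : ∀ N : Subgroup (Cfsg.SU 6 F 2), ∀ y ∈ N ⊓ Subgroup.centralizer (Subgroup.zpowers x : Set _), x * y = y * x :=
    fun N y hy => Subgroup.mem_centralizer_iff.1 hy.2 x (Subgroup.mem_zpowers x)
  have key : ∀ N : Subgroup (Cfsg.SU 6 F 2), N ≤ U → Z ≤ N → x ∈ Subgroup.normalizer (N : Set (Cfsg.SU 6 F 2)) →
      Nat.card N = 3 ∨ Nat.card N = 3 ^ 6 := by
    intro N hN hZN hxN
    have h1 := card_modEq_of_normalizes h11 (Subgroup.zpowers x) N hR ((Subgroup.zpowers_le).2 hxN)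
    have h2 := card_le_of_cent hF hx (N ⊓ Subgroup.centralizer (Subgroup.zpowers x : Set _))
      (hU.to_le (inf_le_left.trans hN)) (hcent N)
    have h4 : Z ≤ N ⊓ Subgroup.centralizer (Subgroup.zpowers x : Set _) := by
      refine le_inf hZN fun z hz => ?_
      rw [Subgroup.mem_centralizer_iff]
      intro g _
      exact Subgroup.mem_center_iff.1 hz g
    have h5 := Subgroup.card_dvd_of_le h4
    rw [hZ, card_center hF] at h5
    have h6 := Nat.le_of_dvd Nat.card_pos h5
    have h7 : Nat.card ↥(N ⊓ Subgroup.centralizer (Subgroup.zpowers x : Set _)) = 3 := le_antisymm h2 h6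
    rw [h7] at h1
    obtain ⟨n, hn⟩ := IsPGroup.iff_card.1 (hU.to_le hN)
    have h8 : 3 ^ n ∣ 27590492160 := by
      rw [← hn, ← card_su hF]
      exact Subgroup.card_subgroup_dvd_card N
    have h9 : n ≤ 7 := by
      by_contra hlt
      have h10 : 3 ^ 8 ∣ 27590492160 := (pow_dvd_pow 3 (by omega)).trans h8
      norm_num at h10
    rw [hn] at h1 ⊢
    interval_cases n <;> first | (left; rfl) | (right; rfl) | (exfalso; revert h1; decide)
  rcases key U le_rfl hZU hxU with h | h
  · omega
  · exfalso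
    have hcard : Nat.card U = 3 ^ 6 := h
    -- the center
    have hcenP : Subgroup.center U = Z.subgroupOf U := by
      have h1 : Z.subgroupOf U ≤ Subgroup.center U := by
        intro z hz
        rw [Subgroup.mem_center_iff]
        intro g
        exact Subtype.ext (Subgroup.mem_center_iff.1 (Subgroup.mem_subgroupOf.1 hz) g)
      refine (Subgroup.eq_of_le_of_card_ge h1 ?_).symm
      have h2 : Nat.card (Z.subgroupOf U) = 3 := by
        rw [Nat.card_congr (Subgroup.subgroupOfEquivOfLe hZU).toEquiv, hZ, card_center hF]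
      rw [h2]
      set N := (Subgroup.center U).map U.subtype with hN
      have hNc : Nat.card N = Nat.card (Subgroup.center U) :=
        Subgroup.card_map_of_injective U.subtype_injective
      rw [← hNc]
      have hNU : N ≤ U := Subgroup.map_subtype_le _
      have hNp : IsPGroup 3 N := hU.to_le hNU
      have hab : ∀ a ∈ N, ∀ b ∈ N, a * b = b * a := by
        rintro _ ⟨a, ha, rfl⟩ _ ⟨b, -, rfl⟩
        exact congrArg Subtype.val (Subgroup.mem_center_iff.1 ha b).symm
      have hxN := norm_of_char hxU (Subgroup.center U) inferInstance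
      have hxN' := Subgroup.mem_normalizer_iff.1 hxN
      refine card_le_of_cent hF hx N hNp ?_
      -- elements of order three
      let O : Subgroup (Cfsg.SU 6 F 2) :=
        { carrier := {v | v ∈ N ∧ v ^ 3 = 1}
          one_mem' := ⟨N.one_mem, one_pow 3⟩
          mul_mem' := fun {a b} ha hb => ⟨N.mul_mem ha.1 hb.1, by
            rw [(show Commute a b from hab a ha.1 b hb.1).mul_pow, ha.2, hb.2, one_mul]⟩
          inv_mem' := fun {a} ha => ⟨N.inv_mem ha.1, by rw [inv_pow, ha.2, inv_one]⟩ }
      have hO : ∀ v ∈ O, x * v * x⁻¹ = v := by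
        refine Cfsg.Agent.H518.DghpAlg.centralizes_of_normalizes (matRep (suHom 6 F 2))
          (matRep_injective (suHom_injective 6 F 2)) O Nat.prime_three (cast_ne hF Nat.prime_three (by norm_num))
          (fun a ha b hb => hab a ha.1 b hb.1) (fun a ha => ha.2) x (fun n hn => ⟨(hxN' n).1 hn.1, by
            rw [conj_pow, hn.2, mul_one, mul_inv_cancel]⟩) (ℓ := 11) (k := 1) h11
          (by rw [pow_one, ← hx, pow_orderOf_eq_one]) ?_ ?_
        · rw [hF]
          rw [four_mod_three, orderOf_one]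
          norm_num
        · rw [hF]
          rw [four_mod_three, orderOf_one]
          simp
      have h5 := Cfsg.Agent.Lib.CoprimeAbelian.le_centralizer_of_prime_order (Subgroup.zpowers x) N hab
        ((Subgroup.zpowers_le).2 hxN) (by
          obtain ⟨n, hn⟩ := IsPGroup.iff_card.1 hNp
          rw [Nat.card_zpowers, hx, hn]
          exact Nat.Coprime.pow_right _ (by norm_num)) (by
          intro v hv hvp a ha
          have h6 : orderOf v = 3 := by
            obtain ⟨n, hn⟩ := IsPGroup.iff_orderOf.1 hNp ⟨v, hv⟩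
            rw [Subgroup.orderOf_mk] at hn
            rw [hn] at hvp
            have := Nat.Prime.eq_one_of_pow hvp
            rw [hn, this, pow_one]
          have h7 : v ∈ O := ⟨hv, by rw [← h6, pow_orderOf_eq_one]⟩
          obtain ⟨i, rfl⟩ := Subgroup.mem_zpowers_iff.1 ha
          have h8 : Commute x v := mul_inv_eq_iff_eq_mul.1 (hO v h7)
          exact h8.zpow_left i)
      intro u hu
      exact (Subgroup.mem_centralizer_iff.1 (h5 (Subgroup.mem_zpowers x)) u hu).symm
    have hcenc : Nat.card (Subgroup.center U) = 3 := by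
      rw [hcenP, Nat.card_congr (Subgroup.subgroupOfEquivOfLe hZU).toEquiv, hZ, card_center hF]
    have hmeet : ∀ K : Subgroup U, K.Normal → K ≠ ⊥ → Subgroup.center U ≤ K := by
      intro K hK hne
      have hnil : Group.IsNilpotent U := hU.isNilpotent
      have h1 := Cfsg.Agent.Lib.NormalAbelian.normal_inf_center_ne_bot K hne
      have h2 : Nat.card ↥(K ⊓ Subgroup.center U) ∣ 3 := by
        rw [← hcenc]
        exact Subgroup.card_dvd_of_le inf_le_right
      rcases (Nat.dvd_prime Nat.prime_three).1 h2 with h3 | h3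
      · exact absurd (Subgroup.card_eq_one.1 h3) h1
      · have h4 := Subgroup.eq_of_le_of_card_ge (inf_le_right : K ⊓ Subgroup.center U ≤ _) (by rw [h3, hcenc])
        rw [← h4]
        exact inf_le_left
    have hcomm : commutator U ≠ ⊥ := by
      intro h1
      have h2 : Subgroup.center U = ⊤ := by
        rw [eq_top_iff]
        intro a _
        rw [Subgroup.mem_center_iff]
        intro b
        have h3 : ⁅b, a⁆ ∈ commutator U := Subgroup.commutator_mem_commutator (Subgroup.mem_top b) (Subgroup.mem_top a)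
        rw [h1, Subgroup.mem_bot] at h3
        exact commutatorElement_eq_one_iff_mul_comm.1 h3
      rw [h2, Subgroup.card_top, hcard] at hcenc
      norm_num at hcenc
    have hcf := Cfsg.Agent.Lib.FrattiniPGroup.commutator_le_frattini hU
    have h1 : Subgroup.center U ≤ commutator U := hmeet _ inferInstance hcomm
    have h2 : Nat.card (frattini U) = 3 ∨ Nat.card (frattini U) = 3 ^ 6 := by
      have hNc : Nat.card ((frattini U).map U.subtype) = Nat.card (frattini U) :=
        Subgroup.card_map_of_injective U.subtype_injective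
      rw [← hNc]
      refine key _ (Subgroup.map_subtype_le _) ?_ (norm_of_char hxU _ inferInstance)
      intro z hz
      refine ⟨⟨z, hZU hz⟩, ?_, rfl⟩
      apply hcf
      apply h1
      rw [hcenP]
      exact hz
    have h4 : Nat.card (frattini U) = 3 := by
      rcases h2 with h2 | h2
      · exact h2
      · exfalso
        have h5 : frattini U = ⊤ := Subgroup.eq_top_of_card_eq _ (by rw [h2, hcard])
        have h6 : (⊥ : Subgroup U) = ⊤ := frattini_nongenerating (by rw [h5]; exact sup_top_eq _)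
        have h7 : Nat.card U = 1 := by rw [← Subgroup.card_top, ← h6, Subgroup.card_bot]
        omega
    have h5 : Subgroup.center U = frattini U := Subgroup.eq_of_le_of_card_ge (h1.trans hcf) (by rw [h4, hcenc])
    have h6 : commutator U = Subgroup.center U := le_antisymm (by rw [h5]; exact hcf) h1
    obtain ⟨n, -, hn⟩ := Cfsg.Agent.S0095.result (P := U) (p := 3) ⟨⟨hU, h5.symm, h6⟩, hcenc⟩
    rw [hcard] at hn
    have := Nat.pow_right_injective (show 2 ≤ 3 by norm_num) hn
    omega

theorem card_le_of_norm (hF : Fintype.card F = 4) {x : Cfsg.SU 6 F 2} (hx : orderOf x = 11)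
    (U : Subgroup (Cfsg.SU 6 F 2)) (hU : IsPGroup 3 U) (hxU : x ∈ Subgroup.normalizer (U : Set (Cfsg.SU 6 F 2))) :
    Nat.card U ≤ 3 := by
  have h3 : Fact (Nat.Prime 3) := ⟨Nat.prime_three⟩
  have hfin : Finite (Cfsg.SU 6 F 2) := inferInstance
  have hZ : IsPGroup 3 (Subgroup.center (Cfsg.SU 6 F 2)) := IsPGroup.of_card (n := 1) (by rw [card_center hF, pow_one])
  have h1 := card_le_core hF hx (U ⊔ Subgroup.center (Cfsg.SU 6 F 2)) (hU.to_sup_of_normal_right hZ) (by
    rw [Subgroup.mem_normalizer_iff] at hxU ⊢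
    intro y
    constructor
    · intro hy
      obtain ⟨a, ha, b, hb, rfl⟩ := Subgroup.mem_sup_of_normal_right.1 hy
      have h2 : x * (a * b) * x⁻¹ = (x * a * x⁻¹) * b := by
        have h3 := Subgroup.mem_center_iff.1 hb x⁻¹
        calc x * (a * b) * x⁻¹ = x * a * (b * x⁻¹) := by group
          _ = x * a * (x⁻¹ * b) := by rw [h3]
          _ = _ := by group
      rw [h2]
      exact Subgroup.mul_mem_sup ((hxU a).1 ha) hb
    · intro hy
      obtain ⟨a, ha, b, hb, hab⟩ := Subgroup.mem_sup_of_normal_right.1 hy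
      have h2 : y = (x⁻¹ * a * x) * b := by
        have h3 := Subgroup.mem_center_iff.1 hb x
        have h4 : y = x⁻¹ * (a * b) * x := by rw [hab]; group
        rw [h4]
        calc x⁻¹ * (a * b) * x = x⁻¹ * a * (b * x) := by group
          _ = x⁻¹ * a * (x * b) := by rw [h3]
          _ = _ := by group
      rw [h2]
      refine Subgroup.mul_mem_sup ((hxU _).2 ?_) hb
      have : x * (x⁻¹ * a * x) * x⁻¹ = a := by group
      rw [this]
      exact ha) le_sup_right
  exact (Subgroup.card_le_of_le le_sup_left).trans h1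

theorem bd_three (hF : Fintype.card F = 4) : Bd (Cfsg.SU 6 F 2) 11 3 1 := by
  have h := Cfsg.Agent.H743.NFLinB.bdOfUnip bdAbs (Cfsg.SU 6 F 2) F (Fin 6) (suHom 6 F 2) (suHom_injective 6 F 2)
    11 3 5 1 (by norm_num) (by norm_num) (by norm_num) (by rw [hF]; norm_num) (by rw [hF]; exact orderOf_four_11)
    (by norm_num) (fun x hx U hU hxU => by
      have h1 := card_le_of_norm hF hx U hU hxU
      have h3 : Fact (Nat.Prime 3) := ⟨Nat.prime_three⟩
      obtain ⟨n, hn⟩ := IsPGroup.iff_card.1 hU
      rw [hn] at h1 ⊢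
      rw [Nat.prime_three.factorization_pow, Finsupp.single_eq_same]
      by_contra hlt
      have h2 : 3 ^ 2 ≤ 3 ^ n := Nat.pow_le_pow_right (by norm_num) (by omega)
      omega)
  have h5 : (5 : ℕ).factorization 3 = 0 := Nat.factorization_eq_zero_of_not_dvd (by norm_num)
  rwa [h5, add_zero] at h

theorem card_comap {T : Type*} [Group T] [Finite T] (Z : Subgroup T) [Z.Normal] (M : Subgroup (T ⧸ Z)) :
    Nat.card ↥(M.comap (QuotientGroup.mk' Z)) = Nat.card Z * Nat.card M := by
  have h2 := Subgroup.card_mul_index (M.comap (QuotientGroup.mk' Z))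
  have h3 := Subgroup.card_mul_index M
  have h4 := Subgroup.card_mul_index Z
  rw [Subgroup.index_comap_of_surjective _ (QuotientGroup.mk'_surjective Z)] at h2
  have h5 : 0 < M.index := Nat.pos_of_ne_zero Subgroup.index_ne_zero_of_finite
  refine Nat.eq_of_mul_eq_mul_right h5 ?_
  rw [h2, mul_assoc, h3, ← h4]
  rfl

theorem solvable_comap {T : Type*} [Group T] [Finite T] (Z : Subgroup T) [Z.Normal] (hZ : Group.IsSolvable Z)
    (M : Subgroup (T ⧸ Z)) (hM : Group.IsSolvable M) : Group.IsSolvable ↥(M.comap (QuotientGroup.mk' Z)) := by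
  have hle : Z ≤ M.comap (QuotientGroup.mk' Z) := by
    intro z hz
    rw [Subgroup.mem_comap, QuotientGroup.mk'_apply, (QuotientGroup.eq_one_iff z).2 hz]
    exact M.one_mem
  refine Group.isSolvable_of_ker_le_range (Subgroup.inclusion hle) ((QuotientGroup.mk' Z).subgroupComap M) ?_
  rintro ⟨x, hx⟩ hx1
  have := congrArg Subtype.val (MonoidHom.mem_ker.1 hx1)
  exact ⟨⟨x, (QuotientGroup.eq_one_iff (x : T)).1 this⟩, rfl⟩

theorem sep_seven (hF : Fintype.card F = 4) : Sep (Cfsg.SU 6 F 2) 11 7 :=
  sep_linear (matRep (suHom 6 F 2)) (matRep_injective (suHom_injective _ _ _)) (e := 5) (f := 3) (d := 6)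
    (by norm_num) (by norm_num) (by rw [hF]; norm_num) (by rw [hF]; norm_num) (by rw [hF]; exact orderOf_four_11)
    (by rw [hF]; exact orderOf_four_seven) (by rw [finrank_fin]) (by norm_num) (by norm_num) (by norm_num)
    (by norm_num) (by norm_num) (by norm_num)

/-- **`PSU_6(2)`.** -/
theorem nf_u62 (hF : Fintype.card F = 4) : NF (Cfsg.PSU 6 F 2) := by
  have hF2 : Fintype.card F = 2 ^ 2 := by rw [hF]; norm_num
  have hcard := card_psu hF
  have hs : IsSimpleGroup (Cfsg.PSU 6 F 2) := Cfsg.Agent.S0283.result hF2 6 (by norm_num) (by norm_num)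
  have hfin : Finite (Cfsg.PSU 6 F 2) := Nat.finite_of_card_ne_zero (by rw [hcard]; norm_num)
  have hc : Subgroup.center (Cfsg.PSU 6 F 2) = ⊥ := Cfsg.Agent.H342.NF.center_eq_bot_of_two (r := 2) (s := 3)
    (by norm_num) (by norm_num) (by norm_num) (by rw [hcard]; norm_num) (by rw [hcard]; norm_num)
  have hout : outN (Cfsg.PSU 6 F 2) = 6 := by
    have := Fact.mk Nat.prime_two
    have haut := Cfsg.Agent.S0815.result (F := F) 2 1 le_rfl (q := 2) (by norm_num) hF2 6 (by norm_num) (by norm_num)
    refine Cfsg.Agent.H484.SylNorm.index_of_card hc ?_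
    rw [haut]
    norm_num
  have hZs : Group.IsSolvable ↥(Subgroup.center (Cfsg.SU 6 F 2)) :=
    Group.isSolvable_of_comm fun a b => Subtype.ext ((Subgroup.mem_center_iff.1 b.2) a)
  have s7 : Sep (Cfsg.PSU 6 F 2) 11 7 := sep_quot (sep_seven hF)
  refine NF0.nf (Cfsg.Agent.H342.NF.conj_injective hc) (nf0_index (r := 11) (m := 672) (d := 110) (by norm_num)
    (by rw [hcard]; norm_num) (by rw [hout]; norm_num) ?_ ?_ (by rw [hout]; norm_num))
  · intro M hM hM11
    have hMc : Nat.card ↥(M.comap (QuotientGroup.mk' (Subgroup.center (Cfsg.SU 6 F 2)))) = 3 * Nat.card M := by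
      rw [card_comap, card_center hF]
    have hMs := solvable_comap _ hZs M hM
    have hM11' : 11 ∣ Nat.card ↥(M.comap (QuotientGroup.mk' (Subgroup.center (Cfsg.SU 6 F 2)))) := by
      rw [hMc]
      exact hM11.mul_left 3
    have h2 := bd_two hF _ hMs hM11'
    have h3 := bd_three hF _ hMs hM11'
    have hM0 : Nat.card M ≠ 0 := Nat.card_pos.ne'
    rw [hMc, Nat.factorization_mul (by norm_num) hM0, Finsupp.add_apply] at h2 h3
    rw [Nat.prime_three.factorization_self] at h3
    have h3' : ¬ 3 ∣ Nat.card M := by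
      intro h
      have := (Nat.prime_three.dvd_iff_one_le_factorization hM0).1 h
      omega
    have h7' : ¬ 7 ∣ Nat.card M := fun h => s7 M hM hM11 h
    have h4' : ¬ 2 ^ 2 ∣ Nat.card M := by
      intro h
      have := (Nat.prime_two.pow_dvd_iff_le_factorization hM0).1 h
      omega
    have h4 : Nat.card M ∣ (3 ^ 6 * 7) * (2 ^ 15 * 55) := by
      have := Subgroup.card_subgroup_dvd_card M
      rw [hcard] at this
      exact this.trans (by norm_num)
    have h5 : Nat.Coprime (Nat.card M) (3 ^ 6 * 7) := by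
      refine Nat.Coprime.mul_right (Nat.Coprime.pow_right _ ?_) ?_
      · exact ((Nat.Prime.coprime_iff_not_dvd Nat.prime_three).2 h3').symm
      · exact ((Nat.Prime.coprime_iff_not_dvd (by norm_num)).2 h7').symm
    have h6 := dvd_of_not h4 h5
    obtain ⟨a, b, ha, hb, hab⟩ := (Nat.dvd_mul).1 h6
    obtain ⟨i, -, rfl⟩ := (Nat.dvd_prime_pow Nat.prime_two).1 ha
    have hi : i ≤ 1 := by
      by_contra hlt
      apply h4'
      rw [← hab]
      exact (pow_dvd_pow 2 (by omega)).mul_right b
    have hb' := Nat.le_of_dvd (by norm_num) hb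
    have hi' : 2 ^ i ≤ 2 ^ 1 := Nat.pow_le_pow_right (by norm_num) hi
    rw [← hab]
    calc 2 ^ i * b ≤ 2 ^ 1 * 55 := Nat.mul_le_mul hi' hb'
      _ = 110 := by norm_num
  · intro K hK
    by_contra hlt
    have hne : K ≠ ⊤ := by
      rintro rfl
      refine s7 ⊤ hK ?_ ?_
      · rw [Subgroup.card_top, hcard]; norm_num
      · rw [Subgroup.card_top, hcard]; norm_num
    have h1 := (Cfsg.Agent.S2153.result (F := F) hF 6 (by norm_num) le_rfl).1 K hne
    norm_num at h1
    omega

end Cfsg.Agent.H342.NF
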